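import Cfsg.Agent.Lib.LocalChar.Core
import Cfsg.Prelude.Def_RootSubgroups
import Cfsg.Prelude.Def_QuasithinSetup

/-! Connected sets of root involutions: perfection and simplicity modulo the preimage of the centre
of `G/O₂(G)`. -/
set_option autoImplicit false

namespace Cfsg.Agent.Lib.RootInv

variable {G : Type*} [Group G] {D : Set G}

theorem sq_one (hD : IsRootInvolutionSet D) {d : G} (hd : d ∈ D) : d * d = 1 := by
  have := pow_orderOf_eq_one d
  rwa [hD.orderOf_eq d hd, pow_two] at this

theorem inv_eq (hD : IsRootInvolutionSet D) {d : G} (hd : d ∈ D) : d⁻¹ = d :=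
  inv_eq_of_mul_eq_one_right (sq_one hD hd)

theorem mem_ne_one (hD : IsRootInvolutionSet D) {d : G} (hd : d ∈ D) : d ≠ 1 := fun e => by
  have := hD.orderOf_eq d hd
  rw [e, orderOf_one] at this; omega

theorem odd_conj (hD : IsRootInvolutionSet D) {a b : G} (ha : a ∈ D) (hb : b ∈ D)
    (h : Odd (orderOf (a * b))) : ∃ g : G, b = g * a * g⁻¹ := by
  obtain ⟨k, hk⟩ := h
  refine ⟨(a * b) ^ k, ?_⟩
  set r := a * b with hr
  have hinv : a * r⁻¹ = r * a := by
    rw [hr, mul_inv_rev, inv_eq hD ha, inv_eq hD hb]; group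
  have hp : ∀ j : ℕ, a * (r ^ j)⁻¹ = r ^ j * a := by
    intro j
    induction j with
    | zero => simp
    | succ j ih =>
      have e : (r ^ (j + 1))⁻¹ = (r ^ j)⁻¹ * r⁻¹ := by rw [pow_succ', mul_inv_rev]
      rw [e, ← mul_assoc, ih, mul_assoc, hinv, ← mul_assoc, ← pow_succ]
  rw [mul_assoc, hp, ← mul_assoc, ← pow_add, ← two_mul]
  have h1 : r ^ (2 * k) * r = 1 := by rw [← pow_succ, ← hk]; exact pow_orderOf_eq_one r
  rw [eq_inv_of_mul_eq_one_left h1, hr, mul_inv_rev, inv_eq hD ha, inv_eq hD hb, mul_assoc,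
    sq_one hD ha, mul_one]

theorem one_class (hD : IsRootInvolutionSet D) (hc : IsConnectedSet (OddAdj D) D) {a b : G}
    (ha : a ∈ D) (hb : b ∈ D) : ∃ g : G, b = g * a * g⁻¹ := by
  have key : ∀ y, Relation.ReflTransGen (OddAdj D) a y → ∃ g : G, y = g * a * g⁻¹ := by
    intro y hy
    induction hy with
    | refl => exact ⟨1, by simp⟩
    | tail _ e ih =>
      obtain ⟨g, rfl⟩ := ih
      obtain ⟨k, hk⟩ := odd_conj hD e.1 e.2.1 e.2.2.2
      exact ⟨k * g, by rw [hk]; group⟩
  exact key b (hc a ha b hb)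

variable (hD : IsRootInvolutionSet D) (hc : IsConnectedSet (OddAdj D) D)
  (hDD : (D ∩ commutingProducts D).Nonempty)

include hD hc hDD in
theorem triangle {d : G} (hd : d ∈ D) :
    ∃ b ∈ D, Commute d b ∧ d * b ∈ D := by
  obtain ⟨c, hcD, a, ha, b, hb, hab, -, rfl⟩ := hDD
  obtain ⟨g, rfl⟩ := one_class hD hc ha hd
  refine ⟨g * b * g⁻¹, hD.conj_mem b hb g, ?_, ?_⟩
  · exact (show Commute a b from hab).conj g
  · have := hD.conj_mem _ hcD g
    rwa [show g * a * g⁻¹ * (g * b * g⁻¹) = g * (a * b) * g⁻¹ by group]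

include hD hc hDD in
theorem commutator_eq_top : commutator G = ⊤ := by
  rw [eq_top_iff, ← hD.generates, Subgroup.closure_le]
  intro d hd
  obtain ⟨b, hb, -, hdb⟩ := triangle hD hc hDD hd
  obtain ⟨g, hg⟩ := one_class hD hc hd hb
  obtain ⟨k, hk⟩ := one_class hD hc hd hdb
  let f : G →* Abelianization G := Abelianization.of
  have hcj : ∀ x y : G, f (x * y * x⁻¹) = f y := fun x y => by
    simp [map_mul, map_inv, mul_comm]
  have h1 : f b = f d := by rw [hg, hcj]
  have h2 : f (d * b) = f d := by rw [hk, hcj]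
  rw [map_mul, h1, mul_eq_right] at h2
  exact (Abelianization.ker_of G).le h2

include hD hc hDD in
theorem normal_cases [Finite G] (N : Subgroup G) [N.Normal] : N = ⊤ ∨ N ≤ twoZCore G := by
  by_cases hdN : ∃ d ∈ D, d ∈ N
  · left
    obtain ⟨d, hd, hdN⟩ := hdN
    rw [eq_top_iff, ← hD.generates, Subgroup.closure_le]
    intro e he
    obtain ⟨g, rfl⟩ := one_class hD hc hd he
    exact (inferInstance : N.Normal).conj_mem d hdN g
  right
  push Not at hdN
  let π := QuotientGroup.mk' N
  have hker : ∀ x, π x = 1 → x ∈ N := fun x hx => (QuotientGroup.eq_one_iff x).1 hx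
  have key : ∀ d ∈ D, ∀ n ∈ N, Commute (n * d * n⁻¹) d := by
    intro d hd n hn
    obtain ⟨b, hb, hdb, hdbD⟩ := triangle hD hc hDD hd
    set e := n * d * n⁻¹ with he
    have heD : e ∈ D := hD.conj_mem d hd n
    have hπe : π e = π d := by
      have h1 : π n = 1 := (QuotientGroup.eq_one_iff n).2 hn
      rw [he, map_mul, map_mul, map_inv, h1]; group
    have com : ∀ y ∈ D, Commute d y → d * y ∈ D → Commute e y := by
      intro y hy hdy hdyD
      have hsq : π (e * y) * π (e * y) = 1 := by
        rw [map_mul, hπe, ← map_mul, ← map_mul, sq_one hD hdyD, map_one]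
      rcases hD.pair e heD y hy with h | h | ⟨-, h⟩
      · exact h
      · exfalso
        refine hdN _ hdyD (hker _ ?_)
        obtain ⟨k, hk⟩ := h
        have h1 : π (e * y) ^ orderOf (e * y) = 1 := by
          rw [← map_pow, pow_orderOf_eq_one, map_one]
        rw [hk, pow_succ, pow_mul, pow_two, hsq, one_pow, one_mul] at h1
        rwa [map_mul, hπe, ← map_mul] at h1
      · exfalso
        refine hdN _ h (hker _ ?_)
        rw [map_pow, pow_two]; exact hsq
    have hc1 := com b hb hdb hdbD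
    have hdd : d * (d * b) = b := by rw [← mul_assoc, sq_one hD hd, one_mul]
    have hc2 := com (d * b) hdbD ((Commute.refl d).mul_right hdb) (by rw [hdd]; exact hb)
    have : d = (d * b) * b := by rw [mul_assoc, sq_one hD hb, mul_one]
    rw [this]
    exact hc2.mul_right hc1
  intro n hn
  show QuotientGroup.mk' (pCore 2 G) n ∈ Subgroup.center _
  rw [Subgroup.mem_center_iff]
  intro x
  obtain ⟨g, rfl⟩ := QuotientGroup.mk'_surjective _ x
  have hg : g ∈ Subgroup.closure D := by rw [hD.generates]; trivial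
  induction hg using Subgroup.closure_induction with
  | one => simp
  | mul a b _ _ ha hb =>
    rw [map_mul]; exact ((show Commute _ _ from ha).mul_left (show Commute _ _ from hb)).eq
  | inv a _ ha =>
    rw [map_inv]; exact (show Commute _ _ from ha).inv_left.eq
  | mem d hd =>
    let A := Subgroup.closure ((fun m : G => m * d * m⁻¹) '' (N : Set G))
    have hAc : IsMulCommutative A := by
      refine Subgroup.isMulCommutative_closure ?_
      rintro _ ⟨m, hm, rfl⟩ _ ⟨k, hk, rfl⟩
      have h1 := (key d hd (m⁻¹ * k) (mul_mem (inv_mem hm) hk)).conj m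
      have e1 : m * (m⁻¹ * k * d * (m⁻¹ * k)⁻¹) * m⁻¹ = k * d * k⁻¹ := by group
      rw [e1] at h1
      exact h1.symm.eq
    have hA2 : IsPGroup 2 A := by
      intro a
      refine ⟨1, ?_⟩
      obtain ⟨a, ha⟩ := a
      apply Subtype.ext
      show a ^ 2 ^ 1 = 1
      induction ha using Subgroup.closure_induction with
      | mem x hx =>
        obtain ⟨m, hm, rfl⟩ := hx
        rw [pow_one, pow_two]; exact sq_one hD (hD.conj_mem d hd m)
      | one => simp
      | mul x y hx hy ihx ihy =>
        rw [(show Commute x y from congrArg Subtype.val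
          (hAc.is_comm.comm ⟨x, hx⟩ ⟨y, hy⟩)).mul_pow, ihx, ihy, one_mul]
      | inv x hx ih => rw [inv_pow, ih, inv_one]
    have hAn : ∀ m ∈ N, ∀ x ∈ A, m * x * m⁻¹ ∈ A := by
      intro m hm x hx
      have : x ∈ A.comap (MulAut.conj m).toMonoidHom := by
        refine (Subgroup.closure_le _).2 ?_ hx
        rintro _ ⟨k, hk, rfl⟩
        refine Subgroup.mem_comap.2 (Subgroup.subset_closure ⟨m * k, mul_mem hm hk, ?_⟩)
        simp [mul_assoc]
      simpa using this
    have hMn : (A.subgroupOf N).Normal := ⟨fun x hx g => hAn g g.2 x hx⟩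
    have hM2 : IsPGroup 2 (A.subgroupOf N) :=
      hA2.comap_of_injective N.subtype N.subtype_injective
    haveI : (pCore 2 N).Characteristic := LocalChar.pCore_characteristic
    have hle : (pCore 2 N).map N.subtype ≤ pCore 2 G :=
      LocalChar.le_pCore (ConjAct.normal_of_characteristic_of_normal)
        (LocalChar.pCore_isPGroup.map _)
    have hcomm : n * d * n⁻¹ * d ∈ pCore 2 G := by
      have hmem : n * d * n⁻¹ * d ∈ N := by
        have := mul_mem hn ((inferInstance : N.Normal).conj_mem n⁻¹ (inv_mem hn) d)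
        rwa [show n * (d * n⁻¹ * d⁻¹) = n * d * n⁻¹ * d by rw [inv_eq hD hd]; group] at this
      have hA : n * d * n⁻¹ * d ∈ A := mul_mem (Subgroup.subset_closure ⟨n, hn, rfl⟩)
        (Subgroup.subset_closure ⟨1, one_mem _, by simp⟩)
      exact hle ⟨⟨_, hmem⟩, LocalChar.le_pCore hMn hM2 hA, rfl⟩
    have h1 : QuotientGroup.mk' (pCore 2 G) (n * d * n⁻¹ * d⁻¹) = 1 := by
      rw [inv_eq hD hd]; exact (QuotientGroup.eq_one_iff _).2 hcomm
    rw [map_mul, map_mul, map_mul, map_inv, map_inv, mul_inv_eq_one, mul_inv_eq_iff_eq_mul] at h1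
    exact h1.symm

end Cfsg.Agent.Lib.RootInv
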